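import Cfsg.Agent.OddHalf.D7F4.CC
import Cfsg.Agent.OddHalf.D7F4.Dual

/-!
# K = F4(q): both lengths are moved (S1765, node D7)

`KG t X` : the K-facts which are used for the pattern (C, C), in addition to `KF`; `WC` : the doubled root groups of all
roots, all of type C. `hyp`: the hypotheses `CC.Hyp` on the explicit root system, `exists_hom_both`.
-/

set_option autoImplicit false
set_option Elab.async false

namespace Cfsg.Agent.OddHalf.D7F4.CCModel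

open Model TypeC CC

/-- The additional K-facts. -/
structure KG {G : Type*} [Group G] (t : G) (X : (Fin 4 → ℤ) → Subgroup G) : Prop where
  /-- roots of different lengths at 45° or 90° -/
  KX : ∀ a ∈ rts, ∀ b ∈ rts, B a a = 4 → B b b = 2 → 0 ≤ B a b → ∀ k, k * t = t * k →
    (∀ f ∈ rts, 0 ≤ B f a → 0 ≤ B f b → ∀ x ∈ X f, k * x = x * k) →
    ∃ p ∈ X a, ∃ q ∈ X b, k = p * q ∨ k = t * (p * q)
  KP : ∀ a ∈ rts, ∀ k, k * t = t * k → (∀ f ∈ rts, 0 ≤ B f a → ∀ x ∈ X f, k * x = x * k) →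
    ∃ p ∈ X a, k = p ∨ k = t * p
  X2p : ∀ a ∈ rts, ∀ b ∈ rts, B a a = 4 → B b b = 2 → B a b = -2 → ∀ p ∈ X (a + b),
    ∃ x ∈ X a, ∃ y ∈ X b, ∃ q ∈ X (a + b + b), x * y * x⁻¹ * y⁻¹ = p * q
  X2q : ∀ a ∈ rts, ∀ b ∈ rts, B a a = 4 → B b b = 2 → B a b = -2 → ∀ q ∈ X (a + b + b),
    ∃ x ∈ X a, ∃ y ∈ X b, ∃ p ∈ X (a + b), x * y * x⁻¹ * y⁻¹ = p * q

/-- The doubled root groups, all of type C, and the torus. -/
structure WC {G : Type*} [Group G] (t : G) (X W : (Fin 4 → ℤ) → Subgroup G) : Prop where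
  isW : ∀ a ∈ rts, IsW t (X a) (W a)
  WX : ∀ a ∈ rts, ∀ d ∈ rts, 0 ≤ B a d → ∀ w ∈ W a, ∀ x ∈ X d, w * x = x * w
  torus : ∀ a ∈ rts, ∀ b ∈ rts, a ≠ b → a ≠ -b → ∃ δ, t * δ = δ * t ∧ (∀ w ∈ W a, δ * w = w * δ) ∧
    (∀ c ∈ rts, ∀ w ∈ W c, δ * w * δ⁻¹ ∈ W c) ∧ ∀ x ∈ X b, δ * x = x * δ → x = 1

/-! ### Root combinatorics -/

theorem mem_pieces {a : Fin 4 → ℤ} (h : a ∈ rts) : a ∈ (rts.drop 0).take 12 ∨ a ∈ (rts.drop 12).take 12 ∨
    a ∈ (rts.drop 24).take 12 ∨ a ∈ (rts.drop 36).take 12 := by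
  have h1 : rts = (rts.drop 0).take 12 ++ ((rts.drop 12).take 12 ++ ((rts.drop 24).take 12 ++ (rts.drop 36).take 12)) := by
    decide +kernel
  rw [h1] at h
  simpa only [List.mem_append] using h

theorem midL0 : ∀ a ∈ (rts.drop 0).take 12, ∀ b ∈ rts, B a a = 4 → B b b = 4 → B a b = 0 → ∃ r ∈ rts, ∃ s ∈ rts, B r r = 4 ∧
    B s s = 2 ∧ B r s = -2 ∧ B a r = 0 ∧ B a s = 0 ∧ b = r + s + s := by decide +kernel

theorem midL1 : ∀ a ∈ (rts.drop 12).take 12, ∀ b ∈ rts, B a a = 4 → B b b = 4 → B a b = 0 → ∃ r ∈ rts, ∃ s ∈ rts, B r r = 4 ∧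
    B s s = 2 ∧ B r s = -2 ∧ B a r = 0 ∧ B a s = 0 ∧ b = r + s + s := by decide +kernel

theorem midL2 : ∀ a ∈ (rts.drop 24).take 12, ∀ b ∈ rts, B a a = 4 → B b b = 4 → B a b = 0 → ∃ r ∈ rts, ∃ s ∈ rts, B r r = 4 ∧
    B s s = 2 ∧ B r s = -2 ∧ B a r = 0 ∧ B a s = 0 ∧ b = r + s + s := by decide +kernel

theorem midL3 : ∀ a ∈ (rts.drop 36).take 12, ∀ b ∈ rts, B a a = 4 → B b b = 4 → B a b = 0 → ∃ r ∈ rts, ∃ s ∈ rts, B r r = 4 ∧
    B s s = 2 ∧ B r s = -2 ∧ B a r = 0 ∧ B a s = 0 ∧ b = r + s + s := by decide +kernel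

theorem midL : ∀ a ∈ rts, ∀ b ∈ rts, B a a = 4 → B b b = 4 → B a b = 0 → ∃ r ∈ rts, ∃ s ∈ rts, B r r = 4 ∧
    B s s = 2 ∧ B r s = -2 ∧ B a r = 0 ∧ B a s = 0 ∧ b = r + s + s := by
  intro a ha
  rcases mem_pieces ha with h | h | h | h
  · exact midL0 a h
  · exact midL1 a h
  · exact midL2 a h
  · exact midL3 a h

theorem midS0 : ∀ a ∈ (rts.drop 0).take 12, ∀ b ∈ rts, B a a = 2 → B b b = 2 → B a b = 0 → ∃ r ∈ rts, ∃ s ∈ rts, B r r = 4 ∧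
    B s s = 2 ∧ B r s = -2 ∧ B a r = 0 ∧ B a s = 0 ∧ b = r + s := by decide +kernel

theorem midS1 : ∀ a ∈ (rts.drop 12).take 12, ∀ b ∈ rts, B a a = 2 → B b b = 2 → B a b = 0 → ∃ r ∈ rts, ∃ s ∈ rts, B r r = 4 ∧
    B s s = 2 ∧ B r s = -2 ∧ B a r = 0 ∧ B a s = 0 ∧ b = r + s := by decide +kernel

theorem midS2 : ∀ a ∈ (rts.drop 24).take 12, ∀ b ∈ rts, B a a = 2 → B b b = 2 → B a b = 0 → ∃ r ∈ rts, ∃ s ∈ rts, B r r = 4 ∧
    B s s = 2 ∧ B r s = -2 ∧ B a r = 0 ∧ B a s = 0 ∧ b = r + s := by decide +kernel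

theorem midS3 : ∀ a ∈ (rts.drop 36).take 12, ∀ b ∈ rts, B a a = 2 → B b b = 2 → B a b = 0 → ∃ r ∈ rts, ∃ s ∈ rts, B r r = 4 ∧
    B s s = 2 ∧ B r s = -2 ∧ B a r = 0 ∧ B a s = 0 ∧ b = r + s := by decide +kernel

theorem midS : ∀ a ∈ rts, ∀ b ∈ rts, B a a = 2 → B b b = 2 → B a b = 0 → ∃ r ∈ rts, ∃ s ∈ rts, B r r = 4 ∧
    B s s = 2 ∧ B r s = -2 ∧ B a r = 0 ∧ B a s = 0 ∧ b = r + s := by
  intro a ha
  rcases mem_pieces ha with h | h | h | h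
  · exact midS0 a h
  · exact midS1 a h
  · exact midS2 a h
  · exact midS3 a h

variable {G : Type*} [Group G] {t : G} {X W : (Fin 4 → ℤ) → Subgroup G}

theorem mid (hK : KF t X) (hG : KG t X) {a b : Fin 4 → ℤ} (ha : a ∈ rts) (hb : b ∈ rts) (hab : B a a = B b b)
    (h0 : B a b = 0) : ∃ β ∈ Phi, ∃ d ∈ Phi, ∃ b' ∈ Phi, B β d < 0 ∧ β ≠ -d ∧
    B a β = 0 ∧ B a d = 0 ∧ B a b' = 0 ∧ B a a ≠ B d d ∧ B a a ≠ B b' b' ∧ Cn B β d b ∧ Cn B β d b' ∧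
    ∀ q ∈ X b, ∃ x ∈ X β, ∃ y ∈ X d, ∃ p ∈ X b', y⁻¹ * (x * y * x⁻¹) = p * q := by
  have R := roots
  rcases Model.norm a ha with h2 | h4
  · -- short: `b = r + s`, `β = s`, `d = r`, `b' = r + s + s`
    obtain ⟨r, hr, s, hs, k1, k2, k3, k4, k5, rfl⟩ := midS a ha b hb h2 (by omega) h0
    obtain ⟨m1, m2, m3, m4, m5⟩ := R.add_ls hr hs k1 k2 k3
    refine ⟨s, hs, r, hr, r + s + s, m4, by rw [R.symm]; omega, ?_, k5, k4, ?_, by omega, by omega,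
      Or.inl (add_comm r s), Or.inr (Or.inr ⟨k2, k1, rfl⟩), ?_⟩
    · exact R.ne_neg' (by omega)
    · rw [R.add_right, R.add_right]; omega
    · intro p hp
      obtain ⟨y, hy, x, hx, q, hq, e⟩ := hG.X2p r hr s hs k1 k2 k3 p hp
      refine ⟨x, hx, y⁻¹, inv_mem hy, q, hq, ?_⟩
      have e1 : y⁻¹⁻¹ * (x * y⁻¹ * x⁻¹) = y * x * y⁻¹ * x⁻¹ := by group
      rw [e1, e]
      exact hK.X0 _ m1 _ m4 (by rw [R.add_right, m2, m3]; norm_num) p hp q hq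
  · -- long: `b = r + s + s`, `β = r`, `d = s`, `b' = r + s`
    obtain ⟨r, hr, s, hs, k1, k2, k3, k4, k5, rfl⟩ := midL a ha b hb h4 (by omega) h0
    obtain ⟨m1, m2, m3, m4, m5⟩ := R.add_ls hr hs k1 k2 k3
    refine ⟨r, hr, s, hs, r + s, m1, by omega, R.ne_neg' (by omega), k4, k5, ?_, by omega, by omega,
      Or.inr (Or.inl ⟨k1, k2, rfl⟩), Or.inl rfl, ?_⟩
    · rw [R.add_right]; omega
    · intro q hq
      obtain ⟨x, hx, y, hy, p, hp, e⟩ := hG.X2q r hr s hs k1 k2 k3 q⁻¹ (inv_mem hq)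
      refine ⟨x, hx, y⁻¹, inv_mem hy, p⁻¹, inv_mem hp, ?_⟩
      have e1 : y⁻¹⁻¹ * (x * y⁻¹ * x⁻¹) = (x * y * x⁻¹ * y⁻¹)⁻¹ := by group
      rw [e1, e, mul_inv_rev, inv_inv]
      exact hK.X0 _ m4 _ m1 (by rw [R.symm, R.add_right, m2, m3]; norm_num) q hq p⁻¹ (inv_mem hp)

/-- **The hypotheses of the pattern (C, C)** -/
theorem hyp (hK : KF t X) (hG : KG t X) (hW : WC t X W) : CC.Hyp t B Phi X W where
  roots := roots
  tt := hK.tt
  isW := hW.isW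
  WX := hW.WX
  c1 := hK.X1
  c2 := hK.X2
  mid _ ha _ hb hab h0 := mid hK hG ha hb hab h0
  torus := hW.torus
  KA := by
    intro a ha b hb hne hab k hkt hk
    have R := roots
    have hab0 : 0 ≤ B a b := by omega
    rcases Model.norm a ha with h1 | h1 <;> rcases Model.norm b hb with h2 | h2
    · -- short, 60°
      have h3 : B a b ≠ 2 := fun h => hne ((R.ss a ha b hb h1 h2).2 h)
      have h4 := (R.ss a ha b hb h1 h2).1
      obtain ⟨x, hx, y, hy, z, hz, e⟩ := hK.K2s a ha b hb h1 h2 (by omega) (by omega) k hkt (fun f hf h5 x hx =>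
        hk f hf (by rcases h5 with h5 | h5 <;> omega) (by rcases h5 with h5 | h5 <;> omega) x hx)
      rcases hz with ⟨-, rfl⟩ | ⟨h5, -⟩
      · rw [mul_one] at e
        exact ⟨x, hx, y, hy, e⟩
      · omega
    · -- `a` short, `b` long
      obtain ⟨p, hp, q, hq, e⟩ := hG.KX b hb a ha h2 h1 (by rw [R.symm]; exact hab0) k hkt
        (fun f hf h3 h4 x hx => hk f hf h4 h3 x hx)
      have hc : p * q = q * p := hK.X0 b hb a ha (by rw [R.symm]; exact hab0) p hp q hq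
      rw [hc] at e
      exact ⟨q, hq, p, hp, e⟩
    · exact hG.KX a ha b hb h1 h2 hab0 k hkt hk
    · -- long, 60°
      obtain ⟨h0, h4, h5⟩ := R.ll a ha b hb h1 h2
      have h3 : B a b ≠ 4 := fun h => hne (h5 h)
      obtain ⟨x, hx, y, hy, z, hz, e⟩ := hK.K2l a ha b hb h1 h2 (by omega) (by omega) k hkt (fun f hf h5 x hx =>
        hk f hf (by rcases h5 with h5 | h5 <;> omega) (by rcases h5 with h5 | h5 <;> omega) x hx)
      rcases hz with ⟨-, rfl⟩ | ⟨h5, -⟩ | ⟨h5, -⟩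
      · rw [mul_one] at e
        exact ⟨x, hx, y, hy, e⟩
      · omega
      · omega
  KMs := by
    intro a ha b hb h1 h2 h3 k hkt hk
    have R := roots
    obtain ⟨m1, m2, m3, m4, m5⟩ := R.add_ls ha hb h1 h2 h3
    have m3' : B b (a + b) = 0 := by rw [R.symm]; exact m3
    obtain ⟨x, hx, y, hy, z, hz, e⟩ := hK.K2s b hb (a + b) m1 h2 m2 (by omega) (by omega) k hkt (fun f hf h5 x hx =>
      hk f hf (by rcases h5 with h5 | h5 <;> omega) (by rcases h5 with h5 | h5 <;> omega) x hx)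
    rcases hz with ⟨h5, -⟩ | ⟨-, hz⟩
    · omega
    · have e1 : b + (a + b) = a + b + b := by abel
      rw [e1] at hz
      rw [mul_assoc] at e
      exact ⟨x, hx, y, hy, z, hz, e⟩
  KMl := by
    intro a ha b hb h1 h2 h3 k hkt hk
    have R := roots
    obtain ⟨m1, m2, m3, m4, m5⟩ := R.add_ls ha hb h1 h2 h3
    have m6 : B a (a + b + b) = 0 := by rw [R.add_right, R.add_right]; omega
    obtain ⟨x, hx, y, hy, z, hz, e⟩ := hK.K2l a ha (a + b + b) m4 h1 m5 (by omega) (by omega) k hkt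
      (fun f hf h5 x hx =>
        hk f hf (by rcases h5 with h5 | h5 <;> omega) (by rcases h5 with h5 | h5 <;> omega) x hx)
    rcases hz with ⟨h5, -⟩ | ⟨-, m, hm, hmm, hz⟩ | ⟨h5, -⟩
    · omega
    · have e1 : m = a + b := by
        have h6 : m + m = (a + b) + (a + b) := by rw [hmm]; abel
        funext i
        have h7 := congrFun h6 i
        simp only [Pi.add_apply] at h7 ⊢
        omega
      subst e1
      have hyz : y * z = z * y := hK.X0 _ m4 _ m1 (by rw [R.symm, R.add_right, m2, m3]; norm_num) y hy z hz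
      rw [mul_assoc, hyz] at e
      exact ⟨x, hx, z, hz, y, hy, e⟩
    · omega
  KP := hG.KP
  dis a ha b hb hne x hx hx' := hK.ind a ha b hb hne x hx hx'
  ind := by
    intro a ha b hb h1 h2 h3 x hx p hp q hq e
    have R := roots
    obtain ⟨m1, m2, m3, m4, m5⟩ := R.add_ls ha hb h1 h2 h3
    have m6 : B a (a + b + b) = 0 := by rw [R.add_right, R.add_right]; omega
    refine hK.ind3l a ha (a + b + b) m4 h1 m5 m6 (a + b) m1 (by abel) x hx q⁻¹ (inv_mem hq) p⁻¹ (inv_mem hp) ?_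
    rw [e]; group

/-- **Both lengths moved**: the transfer. -/
theorem exists_hom_both [Finite G] (hK : KF t X) (hG : KG t X) (hW : WC t X W) (ht : (Fin 4 → ℤ) →+ ℤ)
    (dir : ∀ a ∈ Phi, 0 < ht a → X a ⊓ (⨆ b : Fin 4 → ℤ, ⨆ _ : b ∈ Phi ∧ ht a ≤ ht b ∧ b ≠ a, X b) = ⊥)
    (htU : t ∉ SL.Bridge.pos ht Phi X)
    (hodd : Odd ((SL.Bridge.pos ht Phi X ⊔ Subgroup.zpowers t).relIndex (Subgroup.centralizer {t}))) :
    ∃ m : G →* ℤˣ, m t = -1 :=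
  CC.exists_hom (hyp hK hG hW) ht dir htU hodd

/-- the functional `lv` as a homomorphism -/
def lvHom : (Fin 4 → ℤ) →+ ℤ := AddMonoidHom.mk' lv lv_add

/-- **Both lengths moved**: the transfer, with the hypotheses in the form of `Dual`. -/
theorem exists_hom_both' [Finite G] (hK : KF t X) (hG : KG t X) (hW : WC t X W)
    (hind : ∀ a ∈ rts, 0 < lv a → ∀ x ∈ X a, x ∈ (⨆ b : Fin 4 → ℤ, ⨆ _ : b ∈ Phi ∧ lv a < lv b, X b) → x = 1)
    (ht : t ∉ ⨆ a : Fin 4 → ℤ, ⨆ _ : a ∈ Phi ∧ 0 < lv a, X a)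
    (hodd : Odd (((⨆ a : Fin 4 → ℤ, ⨆ _ : a ∈ Phi ∧ 0 < lv a, X a) ⊔ Subgroup.zpowers t).relIndex
      (Subgroup.centralizer ({t} : Set G)))) :
    ∃ m : G →* ℤˣ, m t = -1 := by
  refine exists_hom_both hK hG hW lvHom ?_ ht hodd
  intro a ha h0
  have h0' : 0 < lv a := h0
  rw [eq_bot_iff]
  rintro x ⟨hx, hx'⟩
  refine Subgroup.mem_bot.2 (hind a ha h0' x hx ?_)
  refine (iSup₂_le fun b hb => ?_ : _ ≤ ⨆ b : Fin 4 → ℤ, ⨆ _ : b ∈ Phi ∧ lv a < lv b, X b) hx'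
  have hle : lv a ≤ lv b := hb.2.1
  have hne : lv a ≠ lv b := fun h => hb.2.2 (lv_inj a ha b hb.1 h0' h).symm
  exact le_iSup₂_of_le (f := fun b (_ : b ∈ Phi ∧ lv a < lv b) => X b) b ⟨hb.1, by omega⟩ le_rfl

end Cfsg.Agent.OddHalf.D7F4.CCModel
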